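import Mathlib
import Cfsg.Agent.Lib.H18.CharOrtho
import Cfsg.Agent.Lib.H20.Defect
import Cfsg.Agent.Lib.H78.Galois
import Cfsg.Agent.Lib.H82.Quot

/-!
# Blichfeldt's Hall subgroup theorem, part 1: characters of small degree

`Sep m G`: the irreducible characters of degree `< m` separate the elements of `G` from `1`.
-/

set_option linter.style.haveILetI false
set_option linter.style.longLine false

namespace H82.Blich

open Cfsg Subgroup
open H18.CharBasic H18.CharOrtho H18.CharQuot H82.Deg H82.Quot H82.Simple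

/-- the irreducible characters of degree less than `m` have trivial common kernel -/
def Sep (m : ℕ) (G : Type*) [Group G] : Prop :=
  ∀ g : G, g ≠ 1 → ∃ ψ : IrrCharacter G, charDegree (ψ : G → ℂ) < m ∧ (ψ : G → ℂ) g ≠ (ψ : G → ℂ) 1

section
variable {G : Type*} [Group G] [Finite G]

theorem coe_deg (ψ : IrrCharacter G) : (charDegree (ψ : G → ℂ) : ℂ) = (ψ : G → ℂ) 1 :=
  coe_charDegree' ψ

/-- constituents of a character separate what the character separates -/
theorem exists_constituent {χ : G → ℂ} (hχ : IsCharacter G χ) {n : ℕ} (hn : χ 1 = n) {g : G}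
    (hg : χ g ≠ χ 1) : ∃ ψ : IrrCharacter G, charDegree (ψ : G → ℂ) ≤ n ∧
      (ψ : G → ℂ) g ≠ (ψ : G → ℂ) 1 := by
  obtain ⟨s, hs, rfl⟩ := exists_multiset hχ
  by_contra hcon
  push Not at hcon
  apply hg
  have hdeg : ∀ ψ ∈ s, ∃ d : ℕ, ψ 1 = d := fun ψ hψ => exists_degree (isCharacter_of_isIrr (hs ψ hψ))
  have key : ∀ t : Multiset (G → ℂ), t ≤ s → ∃ d : ℕ, t.sum 1 = d := by
    intro t ht
    exact exists_degree (isCharacter_multiset_sum t fun ψ hψ =>
      isCharacter_of_isIrr (hs ψ (Multiset.mem_of_le ht hψ)))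
  have hle : ∀ ψ ∈ s, ∀ h : IsIrrCharacter G ψ, charDegree ψ ≤ n := by
    intro ψ hψ h
    obtain ⟨t, ht⟩ := Multiset.exists_cons_of_mem hψ
    obtain ⟨d, hd⟩ := key t (by rw [ht]; exact Multiset.le_cons_self t ψ)
    have h1 : (s.sum : G → ℂ) 1 = ψ 1 + t.sum 1 := by rw [ht, Multiset.sum_cons]; rfl
    have h2 : ((charDegree ψ : ℕ) : ℂ) = ψ 1 := coe_charDegree (isCharacter_of_isIrr h)
    rw [hn, hd, ← h2] at h1
    have h3 : n = charDegree ψ + d := by exact_mod_cast h1
    omega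
  have h4 : ∀ ψ ∈ s, ψ g = ψ 1 := fun ψ hψ => hcon ⟨ψ, hs ψ hψ⟩ (hle ψ hψ (hs ψ hψ))
  have h5 : ∀ t : Multiset (G → ℂ), (∀ ψ ∈ t, ψ g = ψ 1) → t.sum g = t.sum 1 := by
    intro t
    induction t using Multiset.induction_on with
    | empty => intro _; rfl
    | cons a t ih =>
      intro h
      rw [Multiset.sum_cons, Pi.add_apply, Pi.add_apply, h a (by simp), ih fun ψ hψ => h ψ (by simp [hψ])]
  exact h5 s h4

theorem sep_of_faithful {χ : G → ℂ} (hχ : IsCharacter G χ) {n : ℕ} (hn : χ 1 = n)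
    (hf : ∀ g : G, χ g = χ 1 → g = 1) {m : ℕ} (hm : n < m) : Sep m G := by
  intro g hg
  obtain ⟨ψ, h1, h2⟩ := exists_constituent hχ hn (g := g) (fun h => hg (hf g h))
  exact ⟨ψ, by omega, h2⟩

theorem Sep.subgroup {m : ℕ} (h : Sep m G) (K : Subgroup G) : Sep m K := by
  intro k hk
  obtain ⟨ψ, h1, h2⟩ := h k (fun h => hk (Subtype.ext h))
  obtain ⟨φ, h3, h4⟩ := exists_constituent (isCharacter_restrict K (isCharacter_of_isIrr ψ.2))
    (n := charDegree (ψ : G → ℂ)) (by rw [coe_deg ψ]; rfl) (g := k) h2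
  exact ⟨φ, by omega, h4⟩

theorem Sep.quotient {m : ℕ} (K : Subgroup G) [K.Normal] (χ : IrrCharacter G)
    (hχ : charDegree (χ : G → ℂ) < m) (hK : ∀ g, g ∈ K ↔ (χ : G → ℂ) g = (χ : G → ℂ) 1) :
    Sep m (G ⧸ K) := by
  have hover : Over K χ := fun k hk => (hK k).1 hk
  let χ' : IrrCharacter (G ⧸ K) := (irrQuotEquiv K).symm ⟨χ, hover⟩
  have h1 : ∀ g : G, (χ' : G ⧸ K → ℂ) (g : G ⧸ K) = (χ : G → ℂ) g := by
    intro g
    have h2 : (irrQuotEquiv K χ').1 = χ := by
      rw [(irrQuotEquiv K).apply_symm_apply]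
    rw [← h2]
    rfl
  intro q hq
  obtain ⟨g, rfl⟩ := QuotientGroup.mk_surjective q
  refine ⟨χ', ?_, ?_⟩
  · have h3 : charDegree (χ' : G ⧸ K → ℂ) = charDegree (χ : G → ℂ) := by
      have h4 := coe_deg χ'
      have h5 := coe_deg χ
      have h6 := h1 1
      rw [QuotientGroup.mk_one] at h6
      rw [h6, ← h5] at h4
      exact_mod_cast h4
    rw [h3]; exact hχ
  · have h6 := h1 1
    rw [QuotientGroup.mk_one] at h6
    rw [h1, h6]
    intro h7
    exact hq ((QuotientGroup.eq_one_iff g).2 ((hK g).2 h7))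

/-- A group all of whose prime divisors exceed the separating degrees is abelian. -/
theorem Sep.comm {m : ℕ} (h : Sep m G) (hp : ∀ q : ℕ, q.Prime → q ∣ Nat.card G → m < q) (a b : G) :
    a * b = b * a := by
  by_contra hne
  have h1 : a * b * a⁻¹ * b⁻¹ ≠ 1 := by
    intro h2
    apply hne
    rw [mul_inv_eq_one, mul_inv_eq_iff_eq_mul] at h2
    exact h2
  obtain ⟨ψ, h2, h3⟩ := h _ h1
  have hd : charDegree (ψ : G → ℂ) = 1 := by
    by_contra hd1
    obtain ⟨q, hq, hqd⟩ := Nat.exists_prime_and_dvd hd1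
    have h4 := hp q hq (hqd.trans (degree_dvd_card ψ))
    have h5 : q ≤ charDegree (ψ : G → ℂ) := Nat.le_of_dvd (charDegree_pos ψ) hqd
    omega
  have h8 : (ψ : G → ℂ) 1 = 1 := by rw [← coe_deg ψ, hd, Nat.cast_one]
  apply h3
  obtain ⟨f, hf⟩ := exists_hom_of_degree_one (isCharacter_of_isIrr ψ.2) h8
  rw [h8, hf]
  have h9 : f (a * b * a⁻¹ * b⁻¹) = 1 := by
    rw [map_mul, map_mul, map_mul, map_inv, map_inv, mul_right_comm, mul_inv_cancel_right,
      mul_inv_cancel]
  simp only [h9, Units.val_one]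

/-- A rational element of prime order `q > deg + 1` lies in the kernel. -/
theorem eq_one_of_rational {χ : G → ℂ} (hχ : IsCharacter G χ) {d q : ℕ} (hd : χ 1 = d) (hq : q.Prime)
    (hdq : d + 1 < q) {g : G} (hg : orderOf g = q) (h : ∀ j : ℕ, Nat.Coprime j q → χ (g ^ j) = χ g) :
    χ g = χ 1 := by
  classical
  haveI := Fact.mk hq
  letI := Fintype.ofFinite (zpowers g)
  have hres : IsCharacter (zpowers g) (fun z => χ z) := isCharacter_restrict _ hχ
  obtain ⟨a, ha⟩ := inner_char_natCast hres (isCharacter_one (G := zpowers g))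
  have hcard : Nat.card (zpowers g) = q := by rw [Nat.card_zpowers, hg]
  have hval : ∀ z : zpowers g, z ≠ 1 → χ z = χ g := by
    rintro ⟨z, hz⟩ hz1
    obtain ⟨j, hj⟩ := (mem_powers_iff_mem_zpowers.2 hz : z ∈ Submonoid.powers g)
    have hj' : g ^ j = z := hj
    change χ z = χ g
    rw [← hj']
    apply h j
    rw [Nat.coprime_comm, Nat.Prime.coprime_iff_not_dvd hq]
    rintro ⟨k, hk⟩
    apply hz1
    apply Subtype.ext
    change z = 1
    rw [← hj', hk, pow_mul, ← hg, pow_orderOf_eq_one, one_pow]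
  have hsum : (q : ℂ) * a = d + (q - 1) * χ g := by
    unfold classInner at ha
    rw [← ha, hcard, mul_inv_cancel_left₀ (by exact_mod_cast hq.ne_zero)]
    have h1 : ∀ z : zpowers g, χ z * (starRingEnd ℂ) (1 : ℂ) = if z = 1 then (d : ℂ) else χ g := by
      intro z
      rw [map_one, mul_one]
      split_ifs with hz
      · rw [hz, ← hd]; rfl
      · exact hval z hz
    rw [Finset.sum_congr rfl (fun z _ => h1 z), Finset.sum_ite, Finset.sum_const, Finset.sum_const,
      Finset.filter_eq' Finset.univ (1 : zpowers g), if_pos (Finset.mem_univ _), Finset.card_singleton,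
      Finset.filter_ne' Finset.univ (1 : zpowers g), Finset.card_erase_of_mem (Finset.mem_univ _),
      Finset.card_univ, Fintype.card_eq_nat_card, hcard, one_smul, nsmul_eq_mul,
      Nat.cast_sub hq.one_lt.le, Nat.cast_one]
  have hq1 : (q : ℂ) - 1 ≠ 0 := by
    rw [sub_ne_zero]; exact_mod_cast hq.one_lt.ne'
  have hnorm := char_norm_le hχ g
  rw [hd, Complex.natCast_re] at hnorm
  have had : a ≤ d := by
    have h2 : ‖(q : ℂ) * a‖ ≤ d + (q - 1) * d := by
      rw [hsum]
      refine (norm_add_le _ _).trans ?_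
      rw [norm_mul, Complex.norm_natCast]
      have h3 : ‖(q : ℂ) - 1‖ = (q : ℝ) - 1 := by
        have h4 : ((q : ℂ) - 1) = ((q - 1 : ℕ) : ℂ) := by
          rw [Nat.cast_sub hq.one_lt.le, Nat.cast_one]
        rw [h4, Complex.norm_natCast, Nat.cast_sub hq.one_lt.le, Nat.cast_one]
      rw [h3]
      have h5 : (0 : ℝ) ≤ (q : ℝ) - 1 := by
        have : (1 : ℝ) ≤ q := by exact_mod_cast hq.one_lt.le
        linarith
      have := mul_le_mul_of_nonneg_left hnorm h5
      linarith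
    rw [norm_mul, Complex.norm_natCast, Complex.norm_natCast] at h2
    have h6 : (q : ℝ) * a ≤ q * d := by linarith
    have h7 : (0 : ℝ) < q := by exact_mod_cast hq.pos
    have h8 : (a : ℝ) ≤ d := le_of_mul_le_mul_left h6 h7
    exact_mod_cast h8
  have hdiv : ((q * (d - a) : ℕ) : ℂ) / ((q - 1 : ℕ) : ℂ) = d - χ g := by
    rw [Nat.cast_mul, Nat.cast_sub had, Nat.cast_sub hq.one_lt.le, Nat.cast_one, div_eq_iff hq1, mul_sub,
      hsum]
    ring
  have hint : IsIntegral ℤ (((q * (d - a) : ℕ) : ℂ) / ((q - 1 : ℕ) : ℂ)) := by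
    rw [hdiv]
    exact (isIntegral_algebraMap (R := ℤ) (x := (d : ℤ))).sub (char_isIntegral hχ g)
  have hdvd := dvd_of_isIntegral_div (Nat.sub_ne_zero_of_lt hq.one_lt) hint
  have hcop : Nat.Coprime (q - 1) q := by
    have := Nat.coprime_self_sub_left (n := q) (m := 1) hq.one_lt.le
    rw [this]; exact Nat.coprime_one_left _
  have hdvd2 : q - 1 ∣ d - a := hcop.dvd_of_dvd_mul_left hdvd
  have hda : d - a = 0 := Nat.eq_zero_of_dvd_of_lt hdvd2 (by omega)
  have hda' : a = d := by omega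
  rw [hda'] at hsum
  rw [hd]
  have h9 : ((q : ℂ) - 1) * χ g = (q - 1) * d := by linear_combination -hsum
  exact mul_left_cancel₀ hq1 h9

end

end H82.Blich
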