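import Mathlib
import Cfsg.Agent.Lib.H82.Blich1

/-!
# Blichfeldt's Hall subgroup theorem, part 2: an element of order divisible by all large primes
-/

set_option linter.style.haveILetI false
set_option linter.style.longLine false

namespace H82.Blich

open Cfsg Subgroup
open H18.CharBasic H18.CharOrtho H18.CharQuot H82.Deg H82.Quot H82.Simple

variable {G : Type*} [Group G] [Finite G]

theorem exists_pow_move {χ : IrrCharacter G} (hf : ∀ g : G, (χ : G → ℂ) g = (χ : G → ℂ) 1 → g = 1)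
    {q : ℕ} (hq : q.Prime) (hqG : q ∣ Nat.card G) (hd : charDegree (χ : G → ℂ) + 1 < q) :
    ∃ k : ℕ, Nat.Coprime k (Nat.card G) ∧ (∀ x : G, ¬ q ∣ orderOf x → x ^ k = x) ∧
      ∃ g : G, orderOf g = q ∧ (χ : G → ℂ) (g ^ k) ≠ (χ : G → ℂ) g := by
  haveI := Fact.mk hq
  obtain ⟨g, hg⟩ := exists_prime_orderOf_dvd_card' q hqG
  obtain ⟨j, hj, hjg⟩ : ∃ j : ℕ, Nat.Coprime j q ∧ (χ : G → ℂ) (g ^ j) ≠ (χ : G → ℂ) g := by
    by_contra hcon
    push Not at hcon
    have h1 := eq_one_of_rational (isCharacter_of_isIrr χ.2) (coe_deg χ).symm hq hd hg hcon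
    have h2 := hf g h1
    rw [h2, orderOf_one] at hg
    exact hq.one_lt.ne hg
  obtain ⟨a, r, hqr, har⟩ := Nat.exists_eq_pow_mul_and_not_dvd (Nat.card_pos (α := G)).ne' q hq.ne_one
  have hcop : Nat.Coprime (q ^ a) r := Nat.Coprime.pow_left a ((Nat.Prime.coprime_iff_not_dvd hq).2 hqr)
  have ha0 : a ≠ 0 := by
    rintro rfl
    rw [pow_zero, one_mul] at har
    exact hqr (har ▸ hqG)
  obtain ⟨k, hk1, hk2⟩ := Nat.chineseRemainder hcop j 1
  refine ⟨k, ?_, ?_, g, hg, ?_⟩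
  · rw [har]
    apply Nat.Coprime.mul_right
    · apply Nat.Coprime.pow_right
      have h1 : k ≡ j [MOD q] := hk1.of_dvd (dvd_pow_self q ha0)
      have h2 := h1.gcd_eq
      rw [Nat.coprime_iff_gcd_eq_one, h2]
      exact hj
    · have h2 := hk2.gcd_eq
      rw [Nat.coprime_iff_gcd_eq_one, h2]
      exact Nat.gcd_one_left _
  · intro x hx
    have h1 : orderOf x ∣ r := by
      have h2 : orderOf x ∣ q ^ a * r := by rw [← har]; exact orderOf_dvd_natCard x
      have h3 : Nat.Coprime (orderOf x) (q ^ a) :=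
        (Nat.Coprime.pow_left a ((Nat.Prime.coprime_iff_not_dvd hq).2 hx)).symm
      exact h3.dvd_of_dvd_mul_left h2
    have h2 : k ≡ 1 [MOD orderOf x] := hk2.of_dvd h1
    have h3 := (pow_eq_pow_iff_modEq (x := x)).2 h2
    rw [pow_one] at h3
    exact h3
  · have h1 : k ≡ j [MOD orderOf g] := by rw [hg]; exact hk1.of_dvd (dvd_pow_self q ha0)
    rw [(pow_eq_pow_iff_modEq (x := g)).2 h1]
    exact hjg

theorem pow_prod_eq {K : ℕ → ℕ} (T : Finset ℕ) (x : G) (h : ∀ j ∈ T, x ^ K j = x) :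
    x ^ (∏ j ∈ T, K j) = x := by
  classical
  induction T using Finset.induction_on with
  | empty => rw [Finset.prod_empty, pow_one]
  | insert j T hj ih =>
    rw [Finset.prod_insert hj, pow_mul, h j (Finset.mem_insert_self _ _)]
    exact ih fun i hi => h i (Finset.mem_insert_of_mem hi)

theorem exists_element {m : ℕ} {χ : IrrCharacter G}
    (hf : ∀ g : G, (χ : G → ℂ) g = (χ : G → ℂ) 1 → g = 1) (hd : charDegree (χ : G → ℂ) < m) :
    ∃ g : G, ∀ q : ℕ, q.Prime → m < q → q ∣ Nat.card G → q ∣ orderOf g := by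
  classical
  letI := Fintype.ofFinite G
  set Pi := (Nat.card G).primeFactors.filter (m < ·) with hPi
  have hmem : ∀ q, q ∈ Pi ↔ q.Prime ∧ q ∣ Nat.card G ∧ m < q := by
    intro q
    rw [hPi, Finset.mem_filter, Nat.mem_primeFactors]
    constructor
    · rintro ⟨⟨h1, h2, _⟩, h3⟩; exact ⟨h1, h2, h3⟩
    · rintro ⟨h1, h2, h3⟩; exact ⟨⟨h1, h2, Nat.card_pos.ne'⟩, h3⟩
  have hex : ∀ q ∈ Pi, ∃ k : ℕ, Nat.Coprime k (Nat.card G) ∧ (∀ x : G, ¬ q ∣ orderOf x → x ^ k = x) ∧
      ∃ g : G, orderOf g = q ∧ (χ : G → ℂ) (g ^ k) ≠ (χ : G → ℂ) g := by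
    intro q hq
    obtain ⟨h1, h2, h3⟩ := (hmem q).1 hq
    exact exists_pow_move hf h1 h2 (by omega)
  choose! K hK1 hK2 hK3 using hex
  let β : G → ℂ := fun g => ∑ S ∈ Pi.powerset, (-1 : ℂ) ^ S.card * (χ : G → ℂ) (g ^ (∏ j ∈ S, K j))
  -- vanishing
  have hvan : ∀ q ∈ Pi, ∀ g : G, ¬ q ∣ orderOf g → β g = 0 := by
    intro q hq g hg
    have h1 : Pi = insert q (Pi.erase q) := (Finset.insert_erase hq).symm
    change ∑ S ∈ Pi.powerset, (-1 : ℂ) ^ S.card * (χ : G → ℂ) (g ^ (∏ j ∈ S, K j)) = 0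
    rw [h1, Finset.sum_powerset_insert (Finset.notMem_erase q Pi), ← Finset.sum_add_distrib]
    apply Finset.sum_eq_zero
    intro S hS
    have hqS : q ∉ S := fun h => Finset.notMem_erase q Pi (Finset.mem_powerset.1 hS h)
    rw [Finset.card_insert_of_notMem hqS, Finset.prod_insert hqS, pow_mul, hK2 q hq g hg, pow_succ]
    ring
  -- coprimality
  have hcop : ∀ S ∈ Pi.powerset, Nat.Coprime (∏ j ∈ S, K j) (Nat.card G) := by
    intro S hS
    exact Nat.Coprime.prod_left fun j hj => hK1 j (Finset.mem_powerset.1 hS hj)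
  -- nonvanishing
  have hmove : ∀ S ∈ Pi.powerset, S ≠ ∅ → ∀ h : Nat.Coprime (∏ j ∈ S, K j) (Nat.card G),
      H78.Galois.powIrr h χ ≠ χ := by
    intro S hS hne hc heq
    obtain ⟨i, hi⟩ := Finset.nonempty_iff_ne_empty.2 hne
    have hiP := Finset.mem_powerset.1 hS hi
    obtain ⟨g, hgo, hg⟩ := hK3 i hiP
    apply hg
    have h1 := congrFun (congrArg Subtype.val heq) g
    rw [H78.Galois.powIrr_apply, ← Finset.mul_prod_erase S K hi, pow_mul, pow_prod_eq] at h1
    · exact h1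
    · intro j hj
      apply hK2 j (Finset.mem_powerset.1 hS (Finset.mem_of_mem_erase hj))
      intro hd
      have h2 : orderOf (g ^ K i) ∣ i := by rw [← hgo]; exact orderOf_pow_dvd _
      have h3 := (Nat.prime_dvd_prime_iff_eq ((hmem j).1 (Finset.mem_powerset.1 hS
        (Finset.mem_of_mem_erase hj))).1 ((hmem i).1 hiP).1).1 (hd.trans h2)
      exact Finset.ne_of_mem_erase hj h3
  have hinner : classInner β (χ : G → ℂ) = 1 := by
    have h1 : β = ∑ S ∈ Pi.powerset, ((-1 : ℂ) ^ S.card) •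
        (fun g : G => (χ : G → ℂ) (g ^ (∏ j ∈ S, K j))) := by
      funext g
      rw [Finset.sum_apply]
      rfl
    rw [h1, H18.CharOrtho.inner_sum_left, Finset.sum_eq_single ∅]
    · rw [H18.CharOrtho.inner_smul_left, Finset.card_empty, pow_zero, one_mul]
      simp only [Finset.prod_empty, pow_one]
      exact inner_irr_self χ.2
    · intro S hS hne
      rw [H18.CharOrtho.inner_smul_left]
      have h2 := inner_irr_ne (H78.Galois.powIrr (hcop S hS) χ).2 χ.2
        (fun h => hmove S hS hne (hcop S hS) (Subtype.ext h))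
      have h3 : ((H78.Galois.powIrr (hcop S hS) χ : IrrCharacter G) : G → ℂ) =
        fun g : G => (χ : G → ℂ) (g ^ (∏ j ∈ S, K j)) := rfl
      rw [h3] at h2
      rw [h2, mul_zero]
    · intro h
      exact absurd (Finset.mem_powerset.2 (Finset.empty_subset _)) h
  have hne : β ≠ 0 := by
    intro h0
    rw [h0] at hinner
    have : classInner (0 : G → ℂ) (χ : G → ℂ) = 0 := by
      unfold classInner
      simp
    rw [this] at hinner
    exact zero_ne_one hinner
  obtain ⟨g, hg⟩ := Function.ne_iff.1 hne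
  refine ⟨g, fun q h1 h2 h3 => ?_⟩
  by_contra h4
  exact hg (hvan q ((hmem q).2 ⟨h1, h3, h2⟩) g h4)

/-- the same with an element whose order is a product of large primes -/
theorem exists_element' {m : ℕ} {χ : IrrCharacter G}
    (hf : ∀ g : G, (χ : G → ℂ) g = (χ : G → ℂ) 1 → g = 1) (hd : charDegree (χ : G → ℂ) < m) :
    ∃ y : G, (∀ q : ℕ, q.Prime → m < q → q ∣ Nat.card G → q ∣ orderOf y) ∧
      ∀ q : ℕ, q.Prime → q ∣ orderOf y → m < q := by
  classical
  obtain ⟨g, hg⟩ := exists_element hf hd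
  set Pi := (Nat.card G).primeFactors.filter (m < ·) with hPi
  have hmem : ∀ q, q ∈ Pi ↔ q.Prime ∧ q ∣ Nat.card G ∧ m < q := by
    intro q
    rw [hPi, Finset.mem_filter, Nat.mem_primeFactors]
    constructor
    · rintro ⟨⟨h1, h2, _⟩, h3⟩; exact ⟨h1, h2, h3⟩
    · rintro ⟨h1, h2, h3⟩; exact ⟨⟨h1, h2, Nat.card_pos.ne'⟩, h3⟩
  have hdvd : ∏ q ∈ Pi, q ∣ orderOf g := by
    apply Finset.prod_primes_dvd
    · intro q hq
      exact ((hmem q).1 hq).1.prime
    · intro q hq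
      obtain ⟨h1, h2, h3⟩ := (hmem q).1 hq
      exact hg q h1 h3 h2
  have ho : orderOf (g ^ (orderOf g / ∏ q ∈ Pi, q)) = ∏ q ∈ Pi, q :=
    orderOf_pow_orderOf_div (orderOf_pos g).ne' hdvd
  refine ⟨g ^ (orderOf g / ∏ q ∈ Pi, q), ?_, ?_⟩
  · intro q h1 h2 h3
    rw [ho]
    exact Finset.dvd_prod_of_mem (fun q => q) ((hmem q).2 ⟨h1, h3, h2⟩)
  · intro q h1 h2
    rw [ho] at h2
    obtain ⟨i, hi, hqi⟩ := (h1.prime.dvd_finset_prod_iff _).1 h2
    rw [(Nat.prime_dvd_prime_iff_eq h1 ((hmem i).1 hi).1).1 hqi]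
    exact ((hmem i).1 hi).2.2

end H82.Blich
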