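import Mathlib
import Cfsg.Agent.Lib.H1.Cores
import Cfsg.Agent.S0581

/-!
# Blichfeldt's Hall subgroup theorem, part 3: extensions
-/

set_option linter.style.haveILetI false
set_option linter.style.longLine false

namespace H82.Blich

open Subgroup Pointwise

/-- existence of a Hall subgroup for the set of primes `> m` -/
def Hall (m : ℕ) (G : Type*) [Group G] : Prop :=
  ∃ A : Subgroup G, (∀ q : ℕ, q.Prime → q ∣ Nat.card A → m < q) ∧
    ∀ q : ℕ, q.Prime → q ∣ A.index → q ≤ m

variable {G : Type*} [Group G] [Finite G]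

omit [Finite G] in
theorem card_mul_relIndex' (H K : Subgroup G) (h : H ≤ K) : Nat.card H * H.relIndex K = Nat.card K := by
  rw [← Nat.card_congr (subgroupOfEquivOfLe h).toEquiv]
  exact (H.subgroupOf K).card_mul_index

/-- Frattini argument for a nilpotent Hall subgroup of a normal subgroup. -/
theorem frattini_hall {m : ℕ} (K L : Subgroup G) [hK : K.Normal] (hLK : L ≤ K)
    (hLn : Group.IsNilpotent L) (h1 : ∀ q : ℕ, q.Prime → q ∣ Nat.card L → m < q)
    (h2 : ∀ q : ℕ, q.Prime → q ∣ L.relIndex K → q ≤ m) (g : G) :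
    ∃ k ∈ K, k⁻¹ * g ∈ normalizer (L : Set G) := by
  have hcardL : Nat.card (L.subgroupOf K) = Nat.card L := Nat.card_congr (subgroupOfEquivOfLe hLK).toEquiv
  have hgL : L.map (MulAut.conj g).toMonoidHom ≤ K := by
    rintro _ ⟨l, hl, rfl⟩
    exact hK.conj_mem l (hLK hl) g
  have hcardg : Nat.card (L.map (MulAut.conj g).toMonoidHom) = Nat.card L :=
    (Nat.card_congr (L.equivMapOfInjective _ (MulAut.conj g).injective).toEquiv).symm
  have hcardg' : Nat.card ((L.map (MulAut.conj g).toMonoidHom).subgroupOf K) = Nat.card L := by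
    rw [Nat.card_congr (subgroupOfEquivOfLe hgL).toEquiv, hcardg]
  haveI : Group.IsNilpotent (L.subgroupOf K) :=
    Group.nilpotent_of_mulEquiv (subgroupOfEquivOfLe hLK).symm
  obtain ⟨x, hx⟩ := Cfsg.Agent.S0581.result (L.subgroupOf K) ((L.map (MulAut.conj g).toMonoidHom).subgroupOf K)
    inferInstance (by
      rw [hcardL]
      apply Nat.Coprime.symm
      apply Nat.coprime_of_dvd
      intro q hq hq1 hq2
      have h3 := h1 q hq hq2
      have h4 := h2 q hq hq1
      omega) (by
      intro p hp hpd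
      rw [hcardg'] at hpd
      rw [hcardL]; exact hpd)
  refine ⟨x, x.2, ?_⟩
  -- conjugation by `x⁻¹ g` normalizes `L`
  have hle : L.map (MulAut.conj ((x : G)⁻¹ * g)).toMonoidHom ≤ L := by
    rintro _ ⟨l, hl, rfl⟩
    have h3 : (⟨g * l * g⁻¹, hK.conj_mem l (hLK hl) g⟩ : K) ∈
        (L.map (MulAut.conj g).toMonoidHom).subgroupOf K := by
      rw [mem_subgroupOf]
      exact ⟨l, hl, rfl⟩
    have h4 := hx h3
    rw [mem_pointwise_smul_iff_inv_smul_mem, mem_subgroupOf] at h4
    have h5 : (((MulAut.conj x)⁻¹ • (⟨g * l * g⁻¹, hK.conj_mem l (hLK hl) g⟩ : K) : K) : G) =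
        (x : G)⁻¹ * (g * l * g⁻¹) * x := by
      rw [← map_inv, MulAut.smul_def, MulAut.conj_apply]
      simp
    rw [h5] at h4
    change (x : G)⁻¹ * g * l * ((x : G)⁻¹ * g)⁻¹ ∈ L
    have h6 : (x : G)⁻¹ * g * l * ((x : G)⁻¹ * g)⁻¹ = (x : G)⁻¹ * (g * l * g⁻¹) * x := by group
    rw [h6]
    exact h4
  have heq : L.map (MulAut.conj ((x : G)⁻¹ * g)).toMonoidHom = L := by
    apply eq_of_le_of_card_ge hle
    rw [← Nat.card_congr (L.equivMapOfInjective _ (MulAut.conj ((x : G)⁻¹ * g)).injective).toEquiv]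
  rw [mem_normalizer_iff]
  intro l
  constructor
  · intro hl
    have : (MulAut.conj ((x : G)⁻¹ * g)).toMonoidHom l ∈ L := by
      rw [← heq]; exact ⟨l, hl, rfl⟩
    exact this
  · intro hl
    rw [← heq] at hl
    obtain ⟨l', hl', h7⟩ := hl
    have h8 : l' = l := (MulAut.conj ((x : G)⁻¹ * g)).injective h7
    rw [← h8]; exact hl'

theorem hall_ext {m : ℕ} (K L : Subgroup G) [hK : K.Normal] (hLK : L ≤ K)
    (hLn : Group.IsNilpotent L) (h1 : ∀ q : ℕ, q.Prime → q ∣ Nat.card L → m < q)
    (h2 : ∀ q : ℕ, q.Prime → q ∣ L.relIndex K → q ≤ m) (hQ : Hall m (G ⧸ K)) : Hall m G := by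
  obtain ⟨B', hB1, hB2⟩ := hQ
  set B := B'.comap (QuotientGroup.mk' K) with hB
  set M := normalizer (L : Set G) with hM
  have hKB : K ≤ B := by
    intro k hk
    rw [hB, mem_comap, QuotientGroup.mk'_apply, (QuotientGroup.eq_one_iff k).2 hk]
    exact B'.one_mem
  have hLM : L ≤ M := le_normalizer
  set T := M ⊓ B with hT
  have hLT : L ≤ T := le_inf hLM (hLK.trans hKB)
  have hKT : K ⊔ T = B := by
    apply le_antisymm (sup_le hKB inf_le_right)
    intro b hb
    obtain ⟨k, hk, hkb⟩ := frattini_hall K L hLK hLn h1 h2 b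
    have h3 : b = k * (k⁻¹ * b) := by group
    rw [h3]
    exact mul_mem_sup hk ⟨hkb, B.mul_mem (B.inv_mem (hKB hk)) hb⟩
  have hcardB : Nat.card B = Nat.card K * Nat.card B' := H1.Cores.card_comap_mk' K B'
  have hrel : K.relIndex T = Nat.card B' := by
    have h3 : K.relIndex (K ⊔ T) = K.relIndex T := relIndex_sup_left T K
    rw [← h3, hKT]
    have h4 := card_mul_relIndex' K B hKB
    rw [hcardB] at h4
    exact Nat.eq_of_mul_eq_mul_left Nat.card_pos h4
  -- inside `T`
  set L' := L.subgroupOf T with hL'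
  haveI hL'n : L'.Normal := by
    constructor
    intro l hl t
    rw [hL', mem_subgroupOf] at hl ⊢
    have h3 := (mem_normalizer_iff.1 (show (t : G) ∈ M from t.2.1) l).1 hl
    exact h3
  set R := K.subgroupOf T with hR
  haveI hRn : R.Normal := hK.subgroupOf T
  have hL'R : L' ≤ R := by
    intro x hx
    rw [hL', mem_subgroupOf] at hx
    rw [hR, mem_subgroupOf]
    exact hLK hx
  set N := R.map (QuotientGroup.mk' L') with hN
  haveI hNn : N.Normal := Subgroup.Normal.map hRn _ (QuotientGroup.mk'_surjective L')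
  have hcardL' : Nat.card L' = Nat.card L := Nat.card_congr (subgroupOfEquivOfLe hLT).toEquiv
  have hcardN : Nat.card L * Nat.card N = Nat.card R := by
    rw [← hcardL']; exact H1.Cores.card_map_mk' L' R hL'R
  have hNidx : N.index = Nat.card B' := by
    rw [hN, index_map_eq _ (QuotientGroup.mk'_surjective L') (by rw [QuotientGroup.ker_mk']; exact hL'R)]
    exact hrel
  have hcardR : Nat.card R = Nat.card (K ⊓ T : Subgroup G) := by
    rw [hR, ← inf_subgroupOf_right, Nat.card_congr (subgroupOfEquivOfLe inf_le_right).toEquiv]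
  have hNdvd : Nat.card N ∣ L.relIndex K := by
    have h3 := card_mul_relIndex' L (K ⊓ T) (le_inf hLK hLT)
    rw [← hcardR, ← hcardN] at h3
    have h4 : L.relIndex (K ⊓ T) = Nat.card N := Nat.eq_of_mul_eq_mul_left Nat.card_pos h3
    rw [← h4, ← relIndex_mul_relIndex L (K ⊓ T) K (le_inf hLK hLT) inf_le_left]
    exact dvd_mul_right _ _
  have hcop : Nat.Coprime (Nat.card N) N.index := by
    rw [hNidx]
    apply Nat.coprime_of_dvd
    intro q hq hq1 hq2
    have h3 := hB1 q hq hq2
    have h4 := h2 q hq (hq1.trans hNdvd)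
    omega
  obtain ⟨X', hX'⟩ := exists_right_complement'_of_coprime hcop
  have hcardX' : Nat.card X' = Nat.card B' := by
    rw [← hNidx]; exact hX'.symm.index_eq_card.symm
  set X := (X'.comap (QuotientGroup.mk' L')).map T.subtype with hX
  have hcardX : Nat.card X = Nat.card L * Nat.card B' := by
    rw [hX, ← Nat.card_congr (equivMapOfInjective _ T.subtype T.subtype_injective).toEquiv,
      H1.Cores.card_comap_mk', hcardL', hcardX']
  refine ⟨X, ?_, ?_⟩
  · intro q hq hqd
    rw [hcardX] at hqd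
    rcases hq.dvd_mul.1 hqd with h3 | h3
    · exact h1 q hq h3
    · exact hB1 q hq h3
  · intro q hq hqd
    have h3 : X.index = B'.index * L.relIndex K := by
      apply Nat.eq_of_mul_eq_mul_left (Nat.card_pos (α := X))
      rw [X.card_mul_index, hcardX]
      have h4 := card_mul_relIndex' L K hLK
      have h5 := B'.card_mul_index
      have h6 := K.card_mul_index
      rw [← index_eq_card] at h5
      rw [← h6, ← h4, ← h5]
      ring
    rw [h3] at hqd
    rcases hq.dvd_mul.1 hqd with h4 | h4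
    · exact hB2 q hq h4
    · exact h2 q hq h4

end H82.Blich
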