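import Mathlib
import Cfsg.Agent.Lib.H1.SZ
import Cfsg.Agent.Lib.H82.Blich2
import Cfsg.Agent.Lib.H82.Blich3

/-!
# Blichfeldt's Hall subgroup theorem, part 4: the induction
-/

set_option linter.style.haveILetI false
set_option linter.style.longLine false

namespace H82.Blich

open Cfsg Subgroup Pointwise
open H18.CharBasic H18.CharOrtho H18.CharQuot H82.Deg H82.Quot H82.Simple

universe u

theorem Hall.of_subgroup {m : ℕ} {G : Type*} [Group G] [Finite G] (C : Subgroup G) (h : Hall m C)
    (hC : ∀ q : ℕ, q.Prime → q ∣ C.index → q ≤ m) : Hall m G := by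
  obtain ⟨B, hB1, hB2⟩ := h
  have hcard : Nat.card (B.map C.subtype) = Nat.card B :=
    (Nat.card_congr (equivMapOfInjective _ C.subtype C.subtype_injective).toEquiv).symm
  refine ⟨B.map C.subtype, fun q hq hqd => hB1 q hq (by rw [← hcard]; exact hqd), fun q hq hqd => ?_⟩
  have h3 : (B.map C.subtype).index = B.index * C.index := by
    rw [index_map_subtype]
  rw [h3] at hqd
  rcases hq.dvd_mul.1 hqd with h4 | h4
  · exact hB2 q hq h4
  · exact hC q hq h4

/-- Transfer: a central element of order `q` in a group with abelian Sylow `q`-subgroups forces a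
normal subgroup of index `q`. -/
theorem exists_normal_index {G : Type u} [Group G] [Finite G] {q : ℕ} (hq : q.Prime) {z : G}
    (hz : orderOf z = q) (hzc : ∀ g : G, g * z = z * g) (P : Sylow q G)
    (hP : ∀ a b : (P : Subgroup G), a * b = b * a) : ∃ K : Subgroup G, K.Normal ∧ K.index = q := by
  classical
  haveI := Fact.mk hq
  letI : CommGroup (P : Subgroup G) := { (inferInstance : Group (P : Subgroup G)) with mul_comm := hP }
  let f : G →* (P : Subgroup G) := MonoidHom.transfer (MonoidHom.id (P : Subgroup G))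
  have key : ∀ (k : ℕ) (g₀ : G), g₀⁻¹ * z ^ k * g₀ ∈ (P : Subgroup G) → g₀⁻¹ * z ^ k * g₀ = z ^ k := by
    intro k g₀ _
    have h1 : Commute g₀ (z ^ k) := (show Commute g₀ z from hzc g₀).pow_right k
    rw [mul_assoc, ← h1.eq, inv_mul_cancel_left]
  have hfz : f z = ⟨z ^ (P : Subgroup G).index, MonoidHom.transfer_eq_pow_aux z key⟩ :=
    MonoidHom.transfer_eq_pow _ z key
  have hne : f z ≠ 1 := by
    rw [hfz]
    intro h1
    have h2 : z ^ (P : Subgroup G).index = 1 := congrArg Subtype.val h1
    have h3 := orderOf_dvd_of_pow_eq_one h2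
    rw [hz] at h3
    exact P.not_dvd_index h3
  have hker : f.ker ≠ ⊤ := by
    intro h1
    apply hne
    have : z ∈ f.ker := by rw [h1]; exact mem_top _
    exact this
  have hs : Group.IsSolvable (G ⧸ f.ker) := by
    have e := QuotientGroup.quotientKerEquivRange f
    haveI : Group.IsSolvable f.range := inferInstance
    exact solvable_of_solvable_injective (f := e.toMonoidHom) e.injective
  obtain ⟨M, hM1, hM2, hM3⟩ := H1.SZ.exists_normal_prime_index f.ker hker hs
  refine ⟨M, hM1, ?_⟩
  have h1 : M.index ∣ f.ker.index := index_dvd_of_le hM2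
  rw [index_ker] at h1
  have h2 : M.index ∣ Nat.card (P : Subgroup G) := h1.trans (card_subgroup_dvd_card f.range)
  obtain ⟨k, hk⟩ := IsPGroup.iff_card.1 P.isPGroup'
  rw [hk] at h2
  exact (Nat.prime_dvd_prime_iff_eq hM3 hq).1 (hM3.dvd_of_dvd_pow h2)

theorem main (m : ℕ) : ∀ (n : ℕ) (G : Type u) [Group G] [Finite G], Nat.card G = n → Sep m G →
    Hall m G := by
  intro n
  induction n using Nat.strong_induction_on with
  | _ n IH =>
  intro G _ _ hn hsep
  classical
  by_cases hno : ∀ q : ℕ, q.Prime → q ∣ Nat.card G → q ≤ m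
  · refine ⟨⊥, ?_, ?_⟩
    · intro q hq hqd
      rw [card_bot] at hqd
      exact absurd (Nat.dvd_one.1 hqd) hq.ne_one
    · rw [index_bot]; exact hno
  push Not at hno
  obtain ⟨q0, hq0, hq0G, hq0m⟩ := hno
  haveI hnt : Nontrivial G := by
    rw [← Finite.one_lt_card_iff_nontrivial]
    have := Nat.le_of_dvd Nat.card_pos hq0G
    have := hq0.one_lt
    omega
  -- a proper normal subgroup with a good quotient
  have hnormal : ∀ K : Subgroup G, K.Normal → K ≠ ⊤ → (∀ [K.Normal], Hall m (G ⧸ K)) → Hall m G := by
    intro K hK hKt hQ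
    have hlt : Nat.card K < n := by
      rw [← hn]
      exact lt_of_le_of_ne (Nat.card_le_card_of_injective _ K.subtype_injective)
        (fun h => hKt (eq_top_of_card_eq K h))
    have hsK := hsep.subgroup K
    obtain ⟨A, hA1, hA2⟩ := IH _ hlt K rfl hsK
    have hAc : ∀ a b : A, a * b = b * a := (hsK.subgroup A).comm hA1
    have hAK : A.map K.subtype ≤ K := map_subtype_le A
    let e : A ≃* A.map K.subtype := equivMapOfInjective _ K.subtype K.subtype_injective
    have hnil : Group.IsNilpotent (A.map K.subtype) := by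
      letI : CommGroup A := { (inferInstance : Group A) with mul_comm := hAc }
      haveI : Group.IsNilpotent A := inferInstance
      exact Group.nilpotent_of_mulEquiv e
    refine hall_ext K (A.map K.subtype) hAK hnil ?_ ?_ hQ
    · intro q hq hqd
      rw [← Nat.card_congr e.toEquiv] at hqd
      exact hA1 q hq hqd
    · intro q hq hqd
      have h1 : (A.map K.subtype).relIndex K = A.index := by
        rw [relIndex, subgroupOf, comap_map_eq_self_of_injective K.subtype_injective]
      rw [h1] at hqd
      exact hA2 q hq hqd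
  -- a faithful irreducible character of small degree
  obtain ⟨g1, hg1⟩ := exists_ne (1 : G)
  obtain ⟨χ, hχm, hχg⟩ := hsep g1 hg1
  by_cases hker : ker χ = ⊥
  swap
  · refine hnormal (ker χ) inferInstance ?_ ?_
    · intro h
      apply hχg
      have : g1 ∈ ker χ := by rw [h]; exact mem_top _
      exact mem_ker.1 this
    · intro _
      have hlt : Nat.card (G ⧸ ker χ) < n := by
        rw [← hn, ← (ker χ).card_mul_index, index_eq_card]
        have h1 : 1 < Nat.card (ker χ) := by
          rw [one_lt_card_iff_ne_bot]; exact hker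
        have h2 : 0 < Nat.card (G ⧸ ker χ) := Nat.card_pos
        nlinarith
      exact IH _ hlt (G ⧸ ker χ) rfl (Sep.quotient (ker χ) χ hχm fun g => mem_ker)
  have hfaith : ∀ g : G, (χ : G → ℂ) g = (χ : G → ℂ) 1 → g = 1 := by
    intro g hg
    have h1 : g ∈ ker χ := mem_ker.2 hg
    rw [hker] at h1
    exact h1
  -- normal subgroups of large prime index
  by_cases hidx : ∃ q : ℕ, q.Prime ∧ m < q ∧ ∃ K : Subgroup G, K.Normal ∧ K.index = q
  · obtain ⟨q, hq, hqm, K, hKn, hKi⟩ := hidx
    refine hnormal K hKn (fun h => ?_) ?_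
    · rw [h, index_top] at hKi
      exact hq.one_lt.ne hKi
    · intro _
      refine ⟨⊤, ?_, ?_⟩
      · intro r hr hrd
        rw [card_top, ← index_eq_card, hKi] at hrd
        rw [(Nat.prime_dvd_prime_iff_eq hr hq).1 hrd]
        exact hqm
      · intro r hr hrd
        rw [index_top] at hrd
        exact absurd (Nat.dvd_one.1 hrd) hr.ne_one
  push Not at hidx
  have hsylc : ∀ q : ℕ, q.Prime → m < q → ∀ P : Sylow q G, ∀ a b : (P : Subgroup G), a * b = b * a := by
    intro q hq hqm P
    haveI := Fact.mk hq
    apply (hsep.subgroup (P : Subgroup G)).comm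
    intro r hr hrd
    obtain ⟨k, hk⟩ := IsPGroup.iff_card.1 P.isPGroup'
    rw [hk] at hrd
    rw [(Nat.prime_dvd_prime_iff_eq hr hq).1 (hr.dvd_of_dvd_pow hrd)]
    exact hqm
  have hcenter : ∀ q : ℕ, q.Prime → m < q → ∀ z : G, orderOf z = q → centralizer ({z} : Set G) ≠ ⊤ := by
    intro q hq hqm z hz htop
    haveI := Fact.mk hq
    obtain ⟨K, hK1, hK2⟩ := exists_normal_index hq hz (fun g => by
      have : g ∈ centralizer ({z} : Set G) := by rw [htop]; exact mem_top _
      exact mem_centralizer_singleton_iff.1 this) (default : Sylow q G) (hsylc q hq hqm _)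
    exact hidx q hq hqm K hK1 hK2
  obtain ⟨y, hy1, hy2⟩ := exists_element' hfaith hχm
  set C := centralizer ({y} : Set G) with hC
  have hCidx : ∀ q : ℕ, q.Prime → q ∣ C.index → q ≤ m := by
    intro q hq hqd
    by_contra hqm
    push Not at hqm
    haveI := Fact.mk hq
    have hqG : q ∣ Nat.card G := hqd.trans C.index_dvd_card
    have hqy := hy1 q hq hqm hqG
    set z := y ^ (orderOf y / q) with hz
    have hzo : orderOf z = q := orderOf_pow_orderOf_div (orderOf_pos y).ne' hqy
    set Cz := centralizer ({z} : Set G) with hCz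
    have hCzt : Cz ≠ ⊤ := hcenter q hq hqm z hzo
    have hlt : Nat.card Cz < n := by
      rw [← hn]
      exact lt_of_le_of_ne (Nat.card_le_card_of_injective _ Cz.subtype_injective)
        (fun h => hCzt (eq_top_of_card_eq Cz h))
    have hsC := hsep.subgroup Cz
    obtain ⟨A, hA1, hA2⟩ := IH _ hlt Cz rfl hsC
    have hAc : ∀ a b : A, a * b = b * a := (hsC.subgroup A).comm hA1
    have hnil : Group.IsNilpotent A := by
      letI : CommGroup A := { (inferInstance : Group A) with mul_comm := hAc }
      exact inferInstance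
    have hyC : y ∈ Cz := by
      rw [hCz, mem_centralizer_singleton_iff]
      exact ((Commute.refl y).pow_right _).eq
    obtain ⟨x, hx⟩ := Cfsg.Agent.S0581.result A (zpowers (⟨y, hyC⟩ : Cz)) hnil (by
      apply Nat.coprime_of_dvd
      intro r hr hr1 hr2
      have h3 := hA1 r hr hr1
      have h4 := hA2 r hr hr2
      omega) (by
      intro r hr hrd
      rw [Nat.card_zpowers, orderOf_mk] at hrd
      have h3 := hy2 r hr hrd
      have h4 : r ∣ Nat.card Cz := by
        rw [← orderOf_mk y hyC] at hrd
        exact hrd.trans (orderOf_dvd_natCard _)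
      rw [← A.card_mul_index] at h4
      rcases hr.dvd_mul.1 h4 with h5 | h5
      · exact h5
      · have := hA2 r hr h5
        omega)
    have hyA : (⟨y, hyC⟩ : Cz) ∈ MulAut.conj x • A := hx (mem_zpowers _)
    have hle : (MulAut.conj x • A).map Cz.subtype ≤ C := by
      rintro _ ⟨a, ha, rfl⟩
      rw [hC, mem_centralizer_singleton_iff]
      rw [SetLike.mem_coe, mem_pointwise_smul_iff_inv_smul_mem] at ha
      rw [mem_pointwise_smul_iff_inv_smul_mem] at hyA
      have h1 := hAc ⟨_, ha⟩ ⟨_, hyA⟩
      have h2 := congrArg Subtype.val h1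
      have h3 : (MulAut.conj x)⁻¹ • (a * ⟨y, hyC⟩) = (MulAut.conj x)⁻¹ • ((⟨y, hyC⟩ : Cz) * a) := by
        rw [smul_mul', smul_mul']
        exact h2
      have h4 : a * ⟨y, hyC⟩ = (⟨y, hyC⟩ : Cz) * a := (MulAction.injective (MulAut.conj x)⁻¹) h3
      exact congrArg Subtype.val h4
    have hcard : Nat.card ((MulAut.conj x • A).map Cz.subtype) = Nat.card A := by
      rw [← Nat.card_congr (equivMapOfInjective _ Cz.subtype Cz.subtype_injective).toEquiv]
      exact Nat.card_congr (equivSMul (MulAut.conj x) A).symm.toEquiv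
    have hdvd : Nat.card A ∣ Nat.card C := by
      rw [← hcard]; exact card_dvd_of_le hle
    obtain ⟨t, ht⟩ := hdvd
    have h1 : C.index ∣ A.index * Cz.index := by
      refine ⟨t, ?_⟩
      apply Nat.eq_of_mul_eq_mul_left (Nat.card_pos (α := A))
      have h2 := C.card_mul_index
      have h3 := Cz.card_mul_index
      rw [← A.card_mul_index] at h3
      rw [ht] at h2
      calc Nat.card A * (A.index * Cz.index) = Nat.card A * A.index * Cz.index := by ring
        _ = Nat.card G := h3
        _ = Nat.card A * t * C.index := h2.symm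
        _ = Nat.card A * (C.index * t) := by ring
    rcases hq.dvd_mul.1 (hqd.trans h1) with h2 | h2
    · have := hA2 q hq h2
      omega
    · -- a Sylow subgroup lies in `Cz`
      have hzp : IsPGroup q (zpowers z) := by
        rw [IsPGroup.iff_card]
        exact ⟨1, by rw [Nat.card_zpowers, hzo, pow_one]⟩
      obtain ⟨P, hP⟩ := hzp.exists_le_sylow
      have hPC : (P : Subgroup G) ≤ Cz := by
        intro a ha
        rw [hCz, mem_centralizer_singleton_iff]
        have h3 := hsylc q hq hqm P ⟨a, ha⟩ ⟨z, hP (mem_zpowers z)⟩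
        exact congrArg Subtype.val h3
      exact P.not_dvd_index (h2.trans (index_dvd_of_le hPC))
  have hCt : C ≠ ⊤ := by
    intro htop
    have hqy := hy1 q0 hq0 hq0m hq0G
    have hzo : orderOf (y ^ (orderOf y / q0)) = q0 := orderOf_pow_orderOf_div (orderOf_pos y).ne' hqy
    apply hcenter q0 hq0 hq0m _ hzo
    rw [eq_top_iff]
    intro g _
    have h1 : g ∈ C := by rw [htop]; exact mem_top _
    rw [hC, mem_centralizer_singleton_iff] at h1
    rw [mem_centralizer_singleton_iff]
    exact ((show Commute g y from h1).pow_right _).eq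
  have hlt : Nat.card C < n := by
    rw [← hn]
    exact lt_of_le_of_ne (Nat.card_le_card_of_injective _ C.subtype_injective)
      (fun h => hCt (eq_top_of_card_eq C h))
  exact Hall.of_subgroup C (IH _ hlt C rfl (hsep.subgroup C)) hCidx

end H82.Blich
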