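import Mathlib
import Cfsg.Agent.Lib.H4.Monomial
import Cfsg.Agent.Lib.H82.Blich1

/-!
# Abelian subgroups of index dividing `n!` in nilpotent linear groups of degree `n`
-/

set_option linter.style.haveILetI false
set_option linter.style.longLine false

namespace H82.Blich

open Cfsg Subgroup
open H18.CharBasic H18.CharOrtho H18.CharQuot H82.Deg H82.Quot H82.Simple

variable {G : Type*} [Group G] [Fintype G]

omit [Fintype G] in
theorem index_normalCore_dvd [Finite G] (H : Subgroup G) : H.normalCore.index ∣ H.index.factorial := by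
  classical
  letI := Fintype.ofFinite (G ⧸ H)
  rw [normalCore_eq_ker, index_ker]
  have h1 : Nat.card (Equiv.Perm (G ⧸ H)) = H.index.factorial := by
    rw [Nat.card_eq_fintype_card, Fintype.card_perm, ← Nat.card_eq_fintype_card]
    rfl
  rw [← h1]
  exact card_subgroup_dvd_card _

theorem core_of_mon {χ : G → ℂ} (h : H4.Monomial.IsMon χ) {d : ℕ} (hd : χ 1 = d) :
    ∃ N : Subgroup G, N.Normal ∧ N.index ∣ d.factorial ∧
      ∀ a ∈ N, ∀ b ∈ N, χ (a * b * a⁻¹ * b⁻¹) = χ 1 := by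
  classical
  obtain ⟨H, lam, rfl⟩ := h
  have hdi : H.index = d := by
    have h1 := H18.CharInd.indFun_one H (fun h => (lam h : ℂ))
    rw [hd, map_one, Units.val_one, mul_one] at h1
    exact_mod_cast h1.symm
  refine ⟨H.normalCore, inferInstance, by rw [← hdi]; exact index_normalCore_dvd H, ?_⟩
  intro a ha b hb
  rw [H18.CharInd.indFun_apply, H18.CharInd.indFun_apply]
  congr 1
  apply Finset.sum_congr rfl
  intro x _
  have hax : x⁻¹ * a * x ∈ H := H.normalCore_le (by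
    simpa using (inferInstance : H.normalCore.Normal).conj_mem a ha x⁻¹)
  have hbx : x⁻¹ * b * x ∈ H := H.normalCore_le (by
    simpa using (inferInstance : H.normalCore.Normal).conj_mem b hb x⁻¹)
  have h1 : x⁻¹ * (a * b * a⁻¹ * b⁻¹) * x =
      (x⁻¹ * a * x) * (x⁻¹ * b * x) * (x⁻¹ * a * x)⁻¹ * (x⁻¹ * b * x)⁻¹ := by group
  have h2 : x⁻¹ * 1 * x = 1 := by group
  rw [h1, h2, H18.CharInd.ext_mem H _ (mul_mem (mul_mem (mul_mem hax hbx) (inv_mem hax)) (inv_mem hbx)),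
    H18.CharInd.ext_mem H _ H.one_mem]
  have h3 : (⟨(x⁻¹ * a * x) * (x⁻¹ * b * x) * (x⁻¹ * a * x)⁻¹ * (x⁻¹ * b * x)⁻¹,
      mul_mem (mul_mem (mul_mem hax hbx) (inv_mem hax)) (inv_mem hbx)⟩ : H) =
      ⟨_, hax⟩ * ⟨_, hbx⟩ * ⟨_, hax⟩⁻¹ * ⟨_, hbx⟩⁻¹ := rfl
  have h4 : lam (⟨(x⁻¹ * a * x) * (x⁻¹ * b * x) * (x⁻¹ * a * x)⁻¹ * (x⁻¹ * b * x)⁻¹,
      mul_mem (mul_mem (mul_mem hax hbx) (inv_mem hax)) (inv_mem hbx)⟩ : H) = 1 := by
    rw [h3, map_mul, map_mul, map_mul, map_inv, map_inv, mul_right_comm, mul_inv_cancel_right,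
      mul_inv_cancel]
  have h5 : lam (⟨1, H.one_mem⟩ : H) = 1 := map_one lam
  rw [h4, h5]

theorem core_of_multiset [Group.IsNilpotent G] (s : Multiset (G → ℂ)) :
    (∀ ψ ∈ s, IsIrrCharacter G ψ) → ∀ n : ℕ, s.sum 1 = n →
    ∃ N : Subgroup G, N.Normal ∧ N.index ∣ n.factorial ∧
      ∀ ψ ∈ s, ∀ a ∈ N, ∀ b ∈ N, ψ (a * b * a⁻¹ * b⁻¹) = ψ 1 := by
  induction s using Multiset.induction_on with
  | empty =>
    intro _ n _
    exact ⟨⊤, inferInstance, by rw [index_top]; exact one_dvd _, fun ψ hψ => by simp at hψ⟩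
  | cons χ s ih =>
    intro hs n hn
    have hχ := hs χ (by simp)
    have hs' : ∀ ψ ∈ s, IsIrrCharacter G ψ := fun ψ hψ => hs ψ (by simp [hψ])
    obtain ⟨d, hd⟩ := exists_degree (isCharacter_of_isIrr hχ)
    obtain ⟨e, he⟩ := exists_degree (isCharacter_multiset_sum s fun ψ hψ =>
      isCharacter_of_isIrr (hs' ψ hψ))
    obtain ⟨N1, hN1, hi1, hc1⟩ := core_of_mon (H4.Monomial.isMon_of_nilpotent hχ) hd
    obtain ⟨N2, hN2, hi2, hc2⟩ := ih hs' e he
    have hde : n = d + e := by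
      rw [Multiset.sum_cons, Pi.add_apply, hd, he] at hn
      exact_mod_cast hn.symm
    refine ⟨N1 ⊓ N2, inferInstance, ?_, ?_⟩
    · have h1 : (N1 ⊓ N2).index = N1.relIndex N2 * N2.index := by
        rw [← relIndex_mul_index (inf_le_right : N1 ⊓ N2 ≤ N2), inf_relIndex_right]
      rw [h1, hde]
      exact (mul_dvd_mul ((relIndex_dvd_index_of_normal N1 N2).trans hi1) hi2).trans
        (Nat.factorial_mul_factorial_dvd_factorial_add d e)
    · intro ψ hψ a ha b hb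
      rcases Multiset.mem_cons.1 hψ with rfl | h
      · exact hc1 a ha.1 b hb.1
      · exact hc2 ψ h a ha.2 b hb.2

/-- a nilpotent linear group of degree `n` has an abelian normal subgroup of index dividing `n!` -/
theorem exists_abelian_of_nilpotent [Group.IsNilpotent G] {χ : G → ℂ} (hχ : IsCharacter G χ)
    (hf : ∀ g : G, χ g = χ 1 → g = 1) {n : ℕ} (hn : χ 1 = n) :
    ∃ N : Subgroup G, N.index ∣ n.factorial ∧ ∀ a ∈ N, ∀ b ∈ N, a * b = b * a := by
  obtain ⟨s, hs, rfl⟩ := exists_multiset hχ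
  obtain ⟨N, _, h1, h2⟩ := core_of_multiset s hs n hn
  refine ⟨N, h1, fun a ha b hb => ?_⟩
  have h3 : a * b * a⁻¹ * b⁻¹ = 1 := by
    apply hf
    have key : ∀ t : Multiset (G → ℂ), (∀ ψ ∈ t, ψ (a * b * a⁻¹ * b⁻¹) = ψ 1) →
        t.sum (a * b * a⁻¹ * b⁻¹) = t.sum 1 := by
      intro t
      induction t using Multiset.induction_on with
      | empty => intro _; rfl
      | cons c t ih =>
        intro h
        rw [Multiset.sum_cons, Pi.add_apply, Pi.add_apply, h c (by simp),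
          ih fun ψ hψ => h ψ (by simp [hψ])]
    exact key s fun ψ hψ => h2 ψ hψ a ha b hb
  rw [mul_inv_eq_one, mul_inv_eq_iff_eq_mul] at h3
  exact h3

end H82.Blich
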