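import Cfsg.Agent.S0215
import Cfsg.Agent.Lib.H26.IsoInv
import Cfsg.Agent.Lib.H54.RA1

/-! S3330, piece CW: the centralizer of `Φ (b0, b0)` lies in `M` (via the `Z*`-theorem). -/

set_option autoImplicit false
set_option maxRecDepth 100000
set_option linter.unusedSectionVars false

open Equiv Subgroup H54.RA

namespace H82.RCW

/-- involutions acting fixed-point-freely invert -/
theorem inverts {Q : Type*} [Group Q] [Finite Q] (K : Subgroup Q) [K.Normal] {s : Q} (hs : s * s = 1)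
    (hf : ∀ c ∈ K, c * s = s * c → c = 1) : ∀ c ∈ K, s * c * s⁻¹ = c⁻¹ := by
  intro c hc
  have hfp : MonoidHom.FixedPointFree ((MulAut.conjNormal (H := K) s : MulAut K)) := by
    intro g hg
    have h1 := congrArg Subtype.val hg
    rw [MulAut.conjNormal_apply] at h1
    have h2 : (g : Q) * s = s * g := by
      have h3 : s * (g : Q) * s⁻¹ * s = g * s := by rw [h1]
      rw [← h3]; group
    exact Subtype.ext (hf g g.2 h2)
  have hinv : Function.Involutive ((MulAut.conjNormal (H := K) s : MulAut K)) := by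
    intro g
    apply Subtype.ext
    rw [MulAut.conjNormal_apply, MulAut.conjNormal_apply]
    have h3 : s⁻¹ = s := inv_eq_of_mul_eq_one_left hs
    rw [h3]
    calc s * (s * (g : Q) * s) * s = (s * s) * g * (s * s) := by group
      _ = g := by rw [hs, one_mul, mul_one]
  have h1 := hfp.coe_eq_inv_of_involutive hinv
  have h2 := congrFun h1 ⟨c, hc⟩
  have h3 := congrArg Subtype.val h2
  rw [MulAut.conjNormal_apply] at h3
  exact h3

/-- abstract core -/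
theorem core {G : Type*} [Group G] [Finite G] (M : Subgroup G) {j x t : G}
    (hj : j * j = 1) (hjM : j ∈ M)
    (hx : x * x = 1) (hx1 : x ≠ 1) (hxj' : x ≠ j) (hxM : x ∈ M) (hxj : x * j = j * x)
    (ht : t * t = 1) (htM : t ∈ M) (htj : t * j = j * t) (htx : t * x = x * t)
    (X : ∀ b : G, b * x * b⁻¹ ∈ M → b ∈ M)
    (T : ∀ b : G, b * t * b⁻¹ ∈ M → b ∈ M)
    (TX : ∀ b : G, b * (t * x) * b⁻¹ ∈ M → b ∈ M)
    (F : ∀ b ∈ M, b * j = j * b → b * x * b⁻¹ = x ∨ b * x * b⁻¹ = x * j)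
    (E : ∀ b ∈ M, b * j = j * b → b ^ 8 = 1)
    (b : G) (hb : b * j = j * b) : b ∈ M := by
  classical
  have hji : j⁻¹ = j := inv_eq_of_mul_eq_one_left hj
  let B : Subgroup G := centralizer {j}
  have memB : ∀ g : G, g * j = j * g → g ∈ B := fun g hg => mem_centralizer_singleton_iff.2 hg
  have ofB : ∀ g : B, (g : G) * j = j * g := fun g => mem_centralizer_singleton_iff.1 g.2
  let N : Subgroup B :=
    { carrier := {g | (g : G) = 1 ∨ (g : G) = j}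
      one_mem' := Or.inl rfl
      mul_mem' := by
        rintro a c (ha | ha) (hc | hc)
        · left; rw [Subgroup.coe_mul, ha, hc, one_mul]
        · right; rw [Subgroup.coe_mul, ha, hc, one_mul]
        · right; rw [Subgroup.coe_mul, ha, hc, mul_one]
        · left; rw [Subgroup.coe_mul, ha, hc, hj]
      inv_mem' := by
        rintro a (ha | ha)
        · left; rw [Subgroup.coe_inv, ha, inv_one]
        · right; rw [Subgroup.coe_inv, ha, hji] }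
  have hNn : N.Normal := by
    refine ⟨fun a ha g => ?_⟩
    rcases ha with ha | ha
    · left
      rw [Subgroup.coe_mul, Subgroup.coe_mul, Subgroup.coe_inv, ha]; group
    · right
      rw [Subgroup.coe_mul, Subgroup.coe_mul, Subgroup.coe_inv, ha, ofB g]; group
  let q : B →* B ⧸ N := QuotientGroup.mk' N
  have hq : Function.Surjective q := QuotientGroup.mk'_surjective N
  have ker : ∀ g : B, q g = 1 ↔ ((g : G) = 1 ∨ (g : G) = j) := fun g => QuotientGroup.eq_one_iff g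
  -- the basic claim
  have comm : ∀ (s : G) (hs : s ∈ B), s ∈ M → (∀ c : G, c * s * c⁻¹ ∈ M → c ∈ M) →
      ∀ c : B, q c * q ⟨s, hs⟩ = q ⟨s, hs⟩ * q c → (c : G) ∈ M := by
    intro s hs hsM hS c hc
    apply hS
    have h1 : q (c * ⟨s, hs⟩ * c⁻¹ * (⟨s, hs⟩)⁻¹) = 1 := by
      rw [map_mul, map_mul, map_mul, map_inv, map_inv, hc]; group
    rcases (ker _).1 h1 with h2 | h2
    · have h3 : (c : G) * s * (c : G)⁻¹ = s := by
        have h4 : (c : G) * s * (c : G)⁻¹ * s⁻¹ = 1 := h2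
        exact mul_inv_eq_one.1 h4
      rw [h3]; exact hsM
    · have h3 : (c : G) * s * (c : G)⁻¹ = j * s := by
        have h4 : (c : G) * s * (c : G)⁻¹ * s⁻¹ = j := h2
        exact mul_inv_eq_iff_eq_mul.1 h4
      rw [h3]; exact M.mul_mem hjM hsM
  have hxB := memB x hxj
  have htB := memB t htj
  have htxj : t * x * j = j * (t * x) := by rw [mul_assoc, hxj, ← mul_assoc, htj, mul_assoc]
  have htxB := memB (t * x) htxj
  have htxx : t * x * (t * x) = 1 := by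
    calc t * x * (t * x) = t * (x * t) * x := by group
      _ = t * (t * x) * x := by rw [htx]
      _ = (t * t) * (x * x) := by group
      _ = 1 := by rw [ht, hx, one_mul]
  set z := q ⟨x, hxB⟩ with hz
  have hzz : z * z = 1 := by
    rw [hz, ← map_mul]
    refine (ker _).2 (Or.inl hx)
  have hz1 : z ≠ 1 := by
    intro h1
    rcases (ker _).1 h1 with h2 | h2
    · exact hx1 h2
    · exact hxj' h2
  have hiso : Cfsg.IsIsolatedInvolution z := by
    refine ⟨orderOf_eq_prime (by rw [pow_two]; exact hzz) hz1, fun g hg => ?_⟩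
    obtain ⟨c, rfl⟩ := hq g
    have h1 : q (c * ⟨x, hxB⟩ * c⁻¹) = q c * z * (q c)⁻¹ := by rw [map_mul, map_mul, map_inv]
    have h2 := comm x hxB hxM X (c * ⟨x, hxB⟩ * c⁻¹) (by rw [h1]; exact hg.eq.symm)
    have h3 : (c : G) ∈ M := X _ h2
    rw [← h1]
    rcases F _ h3 (ofB c) with h4 | h4
    · have h5 : c * ⟨x, hxB⟩ * c⁻¹ = ⟨x, hxB⟩ := Subtype.ext h4
      rw [h5]
    · have h5 : c * ⟨x, hxB⟩ * c⁻¹ = ⟨x, hxB⟩ * ⟨j, memB j rfl⟩ := Subtype.ext h4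
      have h6 : q ⟨j, memB j rfl⟩ = 1 := (ker _).2 (Or.inr rfl)
      rw [h5, map_mul, h6, mul_one]
  obtain ⟨P, hP⟩ := (H26.IsoInv.isPGroup_zpowers hiso.1).exists_le_sylow
  have hzP : z ∈ P := hP (mem_zpowers z)
  obtain ⟨K, hKn, hKo, hK⟩ := Cfsg.Agent.S0215.result P z hiso.1 hzP (H26.IsoInv.isolated_sylow hiso P hzP)
  have fpf : ∀ (s : G) (hs : s ∈ B), s ∈ M → (∀ c : G, c * s * c⁻¹ ∈ M → c ∈ M) →
      ∀ c ∈ K, c * q ⟨s, hs⟩ = q ⟨s, hs⟩ * c → c = 1 := by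
    intro s hs hsM hS c hcK hc
    obtain ⟨d, rfl⟩ := hq c
    have h1 := comm s hs hsM hS d hc
    have h2 := E _ h1 (ofB d)
    have h3 : d ^ 8 = 1 := Subtype.ext h2
    have h4 : (q d) ^ 8 = 1 := by rw [← map_pow, h3, map_one]
    have h5 := orderOf_dvd_of_pow_eq_one h4
    have h6 : orderOf (q d) ∣ Nat.card K := Subgroup.orderOf_dvd_natCard K hcK
    have h7 : Nat.Coprime 8 (Nat.card K) := by
      have : (8 : ℕ) = 2 ^ 3 := by norm_num
      rw [this]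
      exact Nat.Coprime.pow_left 3 (Nat.coprime_two_left.2 hKo)
    exact orderOf_eq_one_iff.1 (Nat.eq_one_of_dvd_coprimes h7 h5 h6)
  have invx := inverts K hzz (fpf x hxB hxM X)
  have hqt : q ⟨t, htB⟩ * q ⟨t, htB⟩ = 1 := by
    rw [← map_mul]; exact (ker _).2 (Or.inl ht)
  have invt := inverts K hqt (fpf t htB htM T)
  have hK1 : ∀ c ∈ K, c = 1 := by
    intro c hc
    apply fpf (t * x) htxB (M.mul_mem htM hxM) TX c hc
    have h1 : q ⟨t * x, htxB⟩ = q ⟨t, htB⟩ * z := by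
      rw [hz, ← map_mul]; rfl
    rw [h1]
    have h2 := invx c hc
    have h3 := invt c⁻¹ (K.inv_mem hc)
    have h4 : q ⟨t, htB⟩ * z * c * (q ⟨t, htB⟩ * z)⁻¹ = c := by
      calc q ⟨t, htB⟩ * z * c * (q ⟨t, htB⟩ * z)⁻¹ = q ⟨t, htB⟩ * (z * c * z⁻¹) * (q ⟨t, htB⟩)⁻¹ := by group
        _ = c := by rw [h2, h3, inv_inv]
    exact (mul_inv_eq_iff_eq_mul.1 h4).symm
  have h1 := hK1 _ (hK (q ⟨b, memB b hb⟩))
  have h2 := comm x hxB hxM X ⟨b, memB b hb⟩ (by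
    have h3 : z * q ⟨b, memB b hb⟩ * z⁻¹ = q ⟨b, memB b hb⟩ := mul_inv_eq_one.1 h1
    exact (mul_inv_eq_iff_eq_mul.1 h3).symm)
  exact h2

/-! ### the group `M` -/

variable {G : Type*} [Group G] {Φ : EE →* G} {n : G}

/-- swap of the coordinates -/
def sw (e : EE) : EE := ⟨(e.1.2, e.1.1), e.2.symm⟩

theorem nc' (h : TM Φ n) (e : EE) : n * Φ e * n = Φ (sw e) := by
  have h1 := h.nc e.1.1 e.1.2 e.2
  have h2 : n⁻¹ = n := inv_eq_of_mul_eq_one_left h.nn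
  rw [h2] at h1
  exact h1

theorem nn' (h : TM Φ n) (g : G) : g * n * n = g := by rw [mul_assoc, h.nn, mul_one]

/-- the group `M` -/
def MM (h : TM Φ n) : Subgroup G where
  carrier := {g | g ∈ Φ.range ∨ g * n ∈ Φ.range}
  one_mem' := Or.inl (one_mem _)
  mul_mem' := by
    have hnn := h.nn
    rintro a c (⟨e, he⟩ | ⟨e, he⟩) (⟨f, hf⟩ | ⟨f, hf⟩)
    · exact Or.inl ⟨e * f, by rw [map_mul, he, hf]⟩
    · exact Or.inr ⟨e * f, by rw [map_mul, he, hf, mul_assoc]⟩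
    · refine Or.inr ⟨e * sw f, ?_⟩
      rw [map_mul, ← nc' h, he, hf]
      calc a * n * (n * c * n) = a * (n * n) * c * n := by group
        _ = a * c * n := by rw [hnn, mul_one]
    · refine Or.inl ⟨e * sw f, ?_⟩
      rw [map_mul, ← nc' h, he, hf]
      calc a * n * (n * (c * n) * n) = a * (n * n) * c * (n * n) := by group
        _ = a * c := by rw [hnn, mul_one, mul_one]
  inv_mem' := by
    have hnn := h.nn
    have hni : n⁻¹ = n := inv_eq_of_mul_eq_one_left hnn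
    rintro a (⟨e, he⟩ | ⟨e, he⟩)
    · exact Or.inl ⟨e⁻¹, by rw [map_inv, he]⟩
    · refine Or.inr ⟨sw e⁻¹, ?_⟩
      rw [← nc' h, map_inv, he, mul_inv_rev, hni]
      calc n * (n * a⁻¹) * n = (n * n) * a⁻¹ * n := by group
        _ = a⁻¹ * n := by rw [hnn, one_mul]

theorem mem_MM (h : TM Φ n) {g : G} : g ∈ MM h ↔ (g ∈ Φ.range ∨ g * n ∈ Φ.range) := Iff.rfl

theorem fn_mem (h : TM Φ n) (e : EE) : Φ e ∈ MM h := Or.inl ⟨e, rfl⟩

theorem cases_MM (h : TM Φ n) {g : G} (hg : g ∈ MM h) : (∃ e, g = Φ e) ∨ (∃ e, g = Φ e * n) := by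
  rcases hg with ⟨e, he⟩ | ⟨e, he⟩
  · exact Or.inl ⟨e, he.symm⟩
  · refine Or.inr ⟨e, ?_⟩
    rw [he, nn' h]

theorem T_MM (h : TM Φ n) (g : G) (hg : g * Φ tE * g⁻¹ ∈ MM h) : g ∈ MM h := h.fus g hg

theorem T_conj (h : TM Φ n) {m : G} (hm : m ∈ MM h) (g : G) (hg : g * (m * Φ tE * m⁻¹) * g⁻¹ ∈ MM h) : g ∈ MM h := by
  have h1 : g * m ∈ MM h := by
    apply T_MM h
    have : g * m * Φ tE * (g * m)⁻¹ = g * (m * Φ tE * m⁻¹) * g⁻¹ := by group
    rw [this]; exact hg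
  have h2 := (MM h).mul_mem h1 ((MM h).inv_mem hm)
  have h3 : g * m * m⁻¹ = g := by group
  rwa [h3] at h2

theorem D1 : ∀ σ : Perm (Fin 5), σ * σ = 1 → ∃ ρ : Perm (Fin 5), Perm.sign ρ = 1 ∧
    ρ * t5 * ρ⁻¹ * σ = σ * (ρ * t5 * ρ⁻¹) := by decide +kernel

theorem D2 : ∀ σ : Perm (Fin 5), σ * b0 = b0 * σ → σ ^ 4 = 1 := by decide +kernel

theorem D3 : swap (0 : Fin 5) 1 * swap 2 4 * t5 * (swap (0 : Fin 5) 1 * swap 2 4)⁻¹ = t5 * b0 := by decide +kernel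

theorem D4 : t5 * b0 = b0 * t5 := by decide +kernel

theorem b00 : b0 * b0 = 1 := by decide +kernel

theorem t55 : t5 * t5 = 1 := by decide +kernel

theorem b01 : b0 ≠ 1 := by decide +kernel

theorem ext_EE {e f : EE} (h1 : e.1.1 = f.1.1) (h2 : e.1.2 = f.1.2) : e = f := Subtype.ext (Prod.ext h1 h2)

/-- every involution of `M` commutes with a conjugate of `t` in `M` -/
theorem claimZ (h : TM Φ n) {y : G} (hy : y ∈ MM h) (hyy : y * y = 1) :
    ∃ m ∈ MM h, m * Φ tE * m⁻¹ * y = y * (m * Φ tE * m⁻¹) := by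
  rcases cases_MM h hy with ⟨e, rfl⟩ | ⟨e, rfl⟩
  · have h1 : e * e = 1 := h.inj (by rw [map_mul, hyy, map_one])
    have h2 : e.1.1 * e.1.1 = 1 := congrArg (fun f : EE => f.1.1) h1
    have h3 : e.1.2 * e.1.2 = 1 := congrArg (fun f : EE => f.1.2) h1
    obtain ⟨ρ, hρ, hρ'⟩ := D1 _ h2
    obtain ⟨π, hπ, hπ'⟩ := D1 _ h3
    let m : EE := mkE ρ π (by rw [hρ, hπ])
    refine ⟨Φ m, fn_mem h m, ?_⟩
    rw [← map_inv, ← map_mul, ← map_mul, ← map_mul, ← map_mul]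
    congr 1
    exact ext_EE hρ' hπ'
  · have h1 : Φ e * n * (Φ e * n) = Φ (e * sw e) := by
      rw [map_mul, ← nc' h]; group
    rw [h1] at hyy
    have h2 : e * sw e = 1 := h.inj (by rw [hyy, map_one])
    have h3 : e.1.1 * e.1.2 = 1 := congrArg (fun f : EE => f.1.1) h2
    have h4 : e.1.2 = (e.1.1)⁻¹ := (inv_eq_of_mul_eq_one_right h3).symm
    set σ := e.1.1 with hσ
    -- the element `(ρ, σ⁻¹)`
    obtain ⟨ρ, hρ, hρt⟩ : ∃ ρ : Perm (Fin 5), Perm.sign ρ = Perm.sign σ⁻¹ ∧ ρ * t5 * ρ⁻¹ = t5 := by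
      rcases Int.units_eq_one_or (Perm.sign σ) with hs | hs
      · exact ⟨1, by rw [Perm.sign_inv, hs, Perm.sign_one], by group⟩
      · refine ⟨t5, by rw [Perm.sign_inv, hs]; decide +kernel, by group⟩
    let m : EE := mkE ρ σ⁻¹ hρ
    refine ⟨Φ m, fn_mem h m, ?_⟩
    have h5 : Φ m * Φ tE * (Φ m)⁻¹ = Φ (m * tE * m⁻¹) := by
      rw [map_mul, map_mul, map_inv]
    rw [h5]
    have h6 : ∀ w : EE, Φ e * n * Φ w = Φ (e * sw w) * n := by
      intro w
      rw [map_mul, ← nc' h]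
      calc Φ e * n * Φ w = Φ e * n * Φ w * (n * n) := by rw [h.nn, mul_one]
        _ = _ := by group
    rw [h6, ← mul_assoc, ← map_mul]
    congr 2
    refine ext_EE ?_ ?_
    · change ρ * t5 * ρ⁻¹ * σ = σ * (σ⁻¹ * t5 * σ⁻¹⁻¹)
      rw [hρt]; group
    · change σ⁻¹ * t5 * σ⁻¹⁻¹ * e.1.2 = e.1.2 * (ρ * t5 * ρ⁻¹)
      rw [hρt, h4]; group

theorem claimX (h : TM Φ n) (hu : ∀ g : G, g * Φ (mkE b0 1 sb0) = Φ (mkE b0 1 sb0) * g → g ∈ Φ.range)
    (b : G) (hb : b * Φ (mkE b0 1 sb0) * b⁻¹ ∈ MM h) : b ∈ MM h := by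
  have hxx : Φ (mkE b0 1 sb0) * Φ (mkE b0 1 sb0) = 1 := by
    rw [← map_mul]
    have : mkE b0 1 sb0 * mkE b0 1 sb0 = 1 := ext_EE b00 (one_mul _)
    rw [this, map_one]
  set x := Φ (mkE b0 1 sb0) with hx
  have hyy : b * x * b⁻¹ * (b * x * b⁻¹) = 1 := by
    calc b * x * b⁻¹ * (b * x * b⁻¹) = b * (x * x) * b⁻¹ := by group
      _ = 1 := by rw [hxx]; group
  obtain ⟨m, hm, hmc⟩ := claimZ h hb hyy
  have h1 : b⁻¹ * (m * Φ tE * m⁻¹) * b ∈ Φ.range := by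
    apply hu
    calc b⁻¹ * (m * Φ tE * m⁻¹) * b * x = b⁻¹ * (m * Φ tE * m⁻¹ * (b * x * b⁻¹)) * b := by group
      _ = b⁻¹ * (b * x * b⁻¹ * (m * Φ tE * m⁻¹)) * b := by rw [hmc]
      _ = x * (b⁻¹ * (m * Φ tE * m⁻¹) * b) := by group
  have h2 : b⁻¹ ∈ MM h := by
    apply T_conj h hm
    rw [inv_inv]
    exact Or.inl h1
  have h3 := (MM h).inv_mem h2
  rwa [inv_inv] at h3

/-- piece CW -/
theorem cw {G : Type*} [Group G] [Finite G] {Φ : EE →* G} {n : G} (h : TM Φ n)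
    (hu : ∀ g : G, g * Φ (mkE b0 1 sb0) = Φ (mkE b0 1 sb0) * g → g ∈ Φ.range)
    (g : G) (hg : g * Φ (mkE b0 b0 rfl) = Φ (mkE b0 b0 rfl) * g) : g ∈ Φ.range ∨ g * n ∈ Φ.range := by
  have hΦ : ∀ e f : EE, Φ e * Φ f = Φ (e * f) := fun e f => (map_mul Φ e f).symm
  have hni : n⁻¹ = n := inv_eq_of_mul_eq_one_left h.nn
  have hxjE : mkE b0 1 sb0 * mkE b0 b0 rfl = mkE 1 b0 sb0.symm := ext_EE b00 (one_mul _)
  -- commuting with `j`
  have first : ∀ e : EE, Φ e * Φ (mkE b0 b0 rfl) = Φ (mkE b0 b0 rfl) * Φ e →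
      e.1.1 * b0 = b0 * e.1.1 ∧ e.1.2 * b0 = b0 * e.1.2 := by
    intro e he
    rw [hΦ, hΦ] at he
    have h1 := h.inj he
    exact ⟨congrArg (fun f : EE => f.1.1) h1, congrArg (fun f : EE => f.1.2) h1⟩
  have second : ∀ e : EE, Φ e * n * Φ (mkE b0 b0 rfl) = Φ (mkE b0 b0 rfl) * (Φ e * n) →
      e.1.1 * b0 = b0 * e.1.1 ∧ e.1.2 * b0 = b0 * e.1.2 := by
    intro e he
    apply first
    have h1 : n * Φ (mkE b0 b0 rfl) = Φ (mkE b0 b0 rfl) * n := by
      have h2 := h.nc b0 b0 rfl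
      exact mul_inv_eq_iff_eq_mul.1 h2
    have h3 : Φ e * Φ (mkE b0 b0 rfl) * n = Φ (mkE b0 b0 rfl) * Φ e * n := by
      calc Φ e * Φ (mkE b0 b0 rfl) * n = Φ e * (n * Φ (mkE b0 b0 rfl)) := by rw [h1]; group
        _ = Φ e * n * Φ (mkE b0 b0 rfl) := by group
        _ = Φ (mkE b0 b0 rfl) * Φ e * n := by rw [he]; group
    exact mul_right_cancel h3
  have h4 : ∀ e : EE, e.1.1 * b0 = b0 * e.1.1 → e.1.2 * b0 = b0 * e.1.2 → e ^ 4 = 1 := by
    intro e h1 h2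
    exact ext_EE (D2 _ h1) (D2 _ h2)
  refine core (MM h) (j := Φ (mkE b0 b0 rfl)) (x := Φ (mkE b0 1 sb0)) (t := Φ tE) ?_ (fn_mem h _) ?_ ?_ ?_
    (fn_mem h _) ?_ ?_ (fn_mem h _) ?_ ?_ (claimX h hu) (T_MM h) ?_ ?_ ?_ g hg
  · rw [hΦ]
    have : mkE b0 b0 rfl * mkE b0 b0 rfl = 1 := ext_EE b00 b00
    rw [this, map_one]
  · rw [hΦ]
    have : mkE b0 1 sb0 * mkE b0 1 sb0 = 1 := ext_EE b00 (one_mul _)
    rw [this, map_one]
  · intro h1
    have h2 : mkE b0 1 sb0 = 1 := h.inj (by rw [h1, map_one])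
    exact b01 (congrArg (fun f : EE => f.1.1) h2)
  · intro h1
    have h2 := h.inj h1
    exact b01 (congrArg (fun f : EE => f.1.2) h2).symm
  · rw [hΦ, hΦ]
    congr 1
  · rw [hΦ]
    have : tE * tE = 1 := ext_EE t55 t55
    rw [this, map_one]
  · rw [hΦ, hΦ]
    congr 1
    exact ext_EE D4 D4
  · rw [hΦ, hΦ]
    congr 1
    exact ext_EE D4 (by change t5 * 1 = 1 * t5; rw [mul_one, one_mul])
  · intro b hb
    have hm : swap (0 : Fin 5) 1 * swap 2 4 ∈ (⊤ : Subgroup (Perm (Fin 5))) := trivial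
    let m : EE := mkE (swap (0 : Fin 5) 1 * swap 2 4) 1 (by decide +kernel)
    apply T_conj h (fn_mem h m)
    have h1 : Φ m * Φ tE * (Φ m)⁻¹ = Φ tE * Φ (mkE b0 1 sb0) := by
      rw [← map_inv, hΦ, hΦ, hΦ]
      congr 1
      exact ext_EE D3 (by change 1 * t5 * 1⁻¹ = t5 * 1; group)
    rw [h1]; exact hb
  · intro b hb hbj
    rcases cases_MM h hb with ⟨e, rfl⟩ | ⟨e, rfl⟩
    · left
      obtain ⟨h1, -⟩ := first e hbj
      rw [← map_inv, hΦ, hΦ]
      congr 1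
      refine ext_EE ?_ ?_
      · change e.1.1 * b0 * e.1.1⁻¹ = b0
        rw [h1]; group
      · change e.1.2 * 1 * e.1.2⁻¹ = 1
        group
    · right
      obtain ⟨-, h2⟩ := second e hbj
      have h3 : Φ e * n * Φ (mkE b0 1 sb0) * (Φ e * n)⁻¹ = Φ (e * mkE 1 b0 sb0.symm * e⁻¹) := by
        have h5 := h.nc b0 1 sb0
        rw [map_mul, map_mul, map_inv, ← h5]; group
      rw [h3, hΦ, hxjE]
      congr 1
      refine ext_EE ?_ ?_
      · change e.1.1 * 1 * e.1.1⁻¹ = 1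
        group
      · change e.1.2 * b0 * e.1.2⁻¹ = b0
        rw [h2]; group
  · intro b hb hbj
    rcases cases_MM h hb with ⟨e, rfl⟩ | ⟨e, rfl⟩
    · obtain ⟨h1, h2⟩ := first e hbj
      have h3 := h4 e h1 h2
      rw [← map_pow]
      have h5 : e ^ 8 = (e ^ 4) ^ 2 := by rw [← pow_mul]
      rw [h5, h3, one_pow, map_one]
    · obtain ⟨h1, h2⟩ := second e hbj
      have h3 : Φ e * n * (Φ e * n) = Φ (e * sw e) := by
        rw [map_mul, ← nc' h]; group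
      have h5 : (e * sw e) ^ 4 = 1 := by
        apply h4
        · change e.1.1 * e.1.2 * b0 = b0 * (e.1.1 * e.1.2)
          rw [mul_assoc, h2, ← mul_assoc, h1, mul_assoc]
        · change e.1.2 * e.1.1 * b0 = b0 * (e.1.2 * e.1.1)
          rw [mul_assoc, h1, ← mul_assoc, h2, mul_assoc]
      have h6 : (Φ e * n) ^ 8 = ((Φ e * n) ^ 2) ^ 4 := by rw [← pow_mul]
      rw [h6, pow_two, h3, ← map_pow, h5, map_one]

end H82.RCW
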